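import Cfsg.Agent.Lib.Helper11.WE6a.Upper
import Cfsg.Agent.Lib.Helper11.CoxModel

set_option autoImplicit false
set_option maxRecDepth 100000

namespace Cfsg.Agent.Lib.Helper11.WE6o

open Cfsg.Spor Cfsg.Agent.Lib.Helper11.WE6 Cfsg.Agent.Lib.Helper11.WE6a

set_option maxHeartbeats 0

noncomputable def ntl : List (List (ℕ × ℕ)) := [[], [(0xf000, 16), (0x540000, 8), (0x40b0000, 4), (0x30000000, 2), (0x50510001, 1), (0x4080000, 4), (0x540000, 8), (0xf000, 16)], [(0x8000, 16), (0xc00040, 8), (0x8040a, 4), (0x20122, 2), (0x40110010, 1), (0x20020, 2), (0x8040a, 4), (0xc00040, 8), (0x8000, 16)], [(0xa00, 4), (0x300202, 2), (0x5404, 1), (0x202, 2), (0xa00, 4)], [(0x8000c0, 8), (0x8080800, 4), (0x2200300, 2), (0x1100044, 1), (0x2200000, 2), (0x8080800, 4), (0x8000c0, 8)], [(0x2, 4), (0x2022, 2), (0x1044410, 1), (0x2020, 2), (0x2, 4)], [(0x80, 8), (0x800, 4), (0x2020320, 2), (0x4041540, 1), (0x2020020, 2), (0x800, 4), (0x80, 8)]]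
noncomputable def INVm : ℕ := 6614517792
def LTFm : List (FreeGroup Gen) := [1, a, b, c, d, e, f]
def hExps : List WExp := [(.l 2), (.l 3), (.l 4), (.l 5), (.l 6)]
def gExps : List WExp := [(.l 1), (.l 2), (.l 3), (.l 4), (.l 5), (.l 6)]

theorem netsOK : ntl.all (fun net => net.all (stOK (2 ^ (2 ^ 5)))) = true := by decide +kernel
theorem idOK : (baseWords edges code nodes INVm 6 extraE []).all (wordId (ntOf ntl) 5) = true := by
  decide +kernel
theorem hfix0 : fixChk (ntOf ntl) (hExps.map (fun e => e.letters INVm)) 0 1 = true := by decide +kernel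
theorem htr : growChk (ntOf ntl) (gExps.map (fun e => e.letters INVm)) 4 0 0 27 = true := by
  decide +kernel
theorem invnOK : fixChk (ntOf ntl) (gExps.map (fun e => e.letters INVm)) 0 27 = true := by
  decide +kernel

theorem hwords : ∀ r ∈ baseWords edges code nodes INVm 6 extraE [],
    (r.map fun l => netPerm (ntOf ntl l)).prod = 1 :=
  model_words edges code nodes INVm 6 extraE ntl 5 netsOK idOK
theorem hinvN : ∀ l, netPerm (ntOf ntl (invL INVm l)) = (netPerm (ntOf ntl l))⁻¹ :=
  model_inv edges code nodes INVm 6 extraE ntl hwords (by decide +kernel) rfl (by norm_num)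
  (by decide +kernel) (by decide +kernel)
theorem hLTF : ∀ l, FreeGroup.lift (fun x => netPerm (ntOf ntl (code x))) (LTFm.getD l 1) =
      netPerm (ntOf ntl l) := by
  apply hLTF_of LTFm code 6 ntl rfl (by decide +kernel)
  intro l hl
  interval_cases l
  · exact (map_one _).trans netPerm_nil.symm
  · exact FreeGroup.lift_apply_of
  · exact FreeGroup.lift_apply_of
  · exact FreeGroup.lift_apply_of
  · exact FreeGroup.lift_apply_of
  · exact FreeGroup.lift_apply_of
  · exact FreeGroup.lift_apply_of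
theorem hrels : ∀ r ∈ coxRelators edges ∪ {r | r ∈ extra},
    FreeGroup.lift (fun x => netPerm (ntOf ntl (code x))) r = 1 :=
  model_rels edges extra LTFm code nodes INVm 6 extraE ntl hwords hinvN (by decide)
  (by
    intro r hr
    have : extraE.map (fun e => e.eval (fun l => LTFm.getD l 1)) = extra := rfl
    rw [← this] at hr
    obtain ⟨e, he, h⟩ := List.mem_map.1 hr
    exact ⟨e, he, h⟩) hLTF

/-- the permutation representation -/
noncomputable def psi : Cfsg.Agent.Lib.Helper11.WE6 →* Equiv.Perm ℕ :=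
  PresentedGroup.toGroup (f := fun x => netPerm (ntOf ntl (code x))) hrels

theorem psi_eval (e : WExp) :
    psi (PresentedGroup.mk (coxRelators edges ∪ {r | r ∈ extra}) (e.eval (fun l => LTFm.getD l 1))) =
      wordPerm (ntOf ntl) (e.letters INVm) :=
  lift_eval LTFm code INVm ntl hinvN hLTF e

theorem hS1 : ∀ s ∈ ({b, c, d, e, f} : Set (FreeGroup Gen)), ∃ ex ∈ hExps, ex.eval (fun n => LTFm.getD n 1) = s := by
  intro s hs
  simp only [Set.mem_insert_iff, Set.mem_singleton_iff] at hs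
  rcases hs with rfl | rfl | rfl | rfl | rfl
  · exact ⟨(.l 2), by simp [hExps], rfl⟩
  · exact ⟨(.l 3), by simp [hExps], rfl⟩
  · exact ⟨(.l 4), by simp [hExps], rfl⟩
  · exact ⟨(.l 5), by simp [hExps], rfl⟩
  · exact ⟨(.l 6), by simp [hExps], rfl⟩

theorem hS2 : ∀ ex ∈ hExps, ex.eval (fun n => LTFm.getD n 1) ∈ ({b, c, d, e, f} : Set (FreeGroup Gen)) := by
  intro ex he
  simp only [hExps, List.mem_cons, List.mem_nil_iff, or_false] at he
  rcases he with rfl | rfl | rfl | rfl | rfl <;> simp [WExp.eval, LTFm]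

theorem hgenTop : Subgroup.closure {t : Cfsg.Agent.Lib.Helper11.WE6 | ∃ e ∈ gExps, t =
    PresentedGroup.mk (coxRelators edges ∪ {r | r ∈ extra}) (e.eval (fun n => LTFm.getD n 1))} = ⊤ := by
  rw [eq_top_iff, ← PresentedGroup.closure_range_of]
  apply Subgroup.closure_mono
  rintro _ ⟨x, rfl⟩
  cases x
  · exact ⟨.l 1, by simp [gExps], rfl⟩
  · exact ⟨.l 2, by simp [gExps], rfl⟩
  · exact ⟨.l 3, by simp [gExps], rfl⟩
  · exact ⟨.l 4, by simp [gExps], rfl⟩
  · exact ⟨.l 5, by simp [gExps], rfl⟩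
  · exact ⟨.l 6, by simp [gExps], rfl⟩

theorem hgen (g : Cfsg.Agent.Lib.Helper11.WE6) : g ∈ Subgroup.closure {t : Cfsg.Agent.Lib.Helper11.WE6 | ∃ e ∈ gExps, t =
    PresentedGroup.mk (coxRelators edges ∪ {r | r ∈ extra}) (e.eval (fun n => LTFm.getD n 1))} := by
  rw [hgenTop]; exact Subgroup.mem_top g


end Cfsg.Agent.Lib.Helper11.WE6o
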